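import Mathlib

/-!
Operators of a group with distinct commutation characters are linearly independent.
-/

set_option autoImplicit false

namespace Cfsg.Agent.H69.M22Aut

theorem linearIndependent_ops {k V ι M : Type*} [Field k] [AddCommGroup V] [Module k V]
    [Nontrivial V] [Group M] (f : M →* Module.End k V) (σ : ι → M) (s : ι → ι → k)
    (hs : ∀ n m, f (σ n) * f (σ m) = s n m • (f (σ m) * f (σ n)))
    (hsep : ∀ m m', m ≠ m' → ∃ n, s n m ≠ s n m') :
    LinearIndependent k fun m => f (σ m) := by
  classical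
  have hunit : ∀ g : M, f g * f g⁻¹ = 1 := fun g => by rw [← map_mul, mul_inv_cancel, map_one]
  rw [linearIndependent_iff']
  intro S
  induction S using Finset.strongInduction with
  | _ S ih =>
    intro c hsum i hi
    by_cases hone : ∃ j ∈ S, j ≠ i
    · obtain ⟨j, hj, hji⟩ := hone
      obtain ⟨n, hn⟩ := hsep i j hji.symm
      have h1 : ∑ m ∈ S, (c m * s n m) • f (σ m) = 0 := by
        have h : f (σ n) * ∑ m ∈ S, c m • f (σ m) = 0 := by rw [hsum, mul_zero]
        have h' : (∑ m ∈ S, (c m * s n m) • f (σ m)) * f (σ n) = 0 := by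
          refine Eq.trans ?_ h
          rw [Finset.mul_sum, Finset.sum_mul]
          refine Finset.sum_congr rfl fun m _ => ?_
          rw [mul_smul_comm, hs, smul_mul_assoc, smul_smul]
        calc ∑ m ∈ S, (c m * s n m) • f (σ m)
            = (∑ m ∈ S, (c m * s n m) • f (σ m)) * f (σ n) * f (σ n)⁻¹ := by
              rw [mul_assoc, hunit, mul_one]
          _ = 0 := by rw [h', zero_mul]
      have h2 : ∑ m ∈ S.erase j, (c m * (s n m - s n j)) • f (σ m) = 0 := by
        rw [Finset.sum_erase]
        · simp only [mul_sub, sub_smul, Finset.sum_sub_distrib, h1, zero_sub, neg_eq_zero]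
          simp only [mul_comm _ (s n j), ← smul_smul, ← Finset.smul_sum, hsum, smul_zero]
        · rw [sub_self, mul_zero, zero_smul]
      have h3 := ih _ (Finset.erase_ssubset hj) _ h2 i (Finset.mem_erase.2 ⟨hji.symm, hi⟩)
      exact (mul_eq_zero.1 h3).resolve_right (sub_ne_zero.2 hn)
    · push Not at hone
      rw [Finset.sum_eq_single i (fun m hm hne => absurd (hone m hm) hne)
        (fun h => absurd hi h)] at hsum
      refine (smul_eq_zero.1 hsum).resolve_right fun h => ?_
      have := hunit (σ i)
      rw [h, zero_mul] at this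
      exact zero_ne_one this

theorem card_le_sq {k V ι M : Type*} [Field k] [AddCommGroup V] [Module k V]
    [Nontrivial V] [FiniteDimensional k V] [Fintype ι] [Group M] (f : M →* Module.End k V)
    (σ : ι → M) (s : ι → ι → k) (hs : ∀ n m, f (σ n) * f (σ m) = s n m • (f (σ m) * f (σ n)))
    (hsep : ∀ m m', m ≠ m' → ∃ n, s n m ≠ s n m') :
    Fintype.card ι ≤ Module.finrank k V * Module.finrank k V := by
  have h := (linearIndependent_ops f σ s hs hsep).fintype_card_le_finrank
  exact h.trans_eq (Module.finrank_linearMap k k V V)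

/-- The counting with a given module structure. -/
theorem exists_exponent_of_module {X E ι : Type*} [CommGroup X] [Finite X] [Nontrivial X] [Fintype ι]
    [Group E] {p : ℕ} [Fact p.Prime] [Fact (2 < p)] [Module (ZMod p) (Additive X)]
    (ρ : E →* Monoid.End X) (σ : ι → E) (c : ι → ι → Prop)
    (hc : ∀ n m, c n m → σ n * σ m = σ m * σ n)
    (hnc : ∀ n m, ¬ c n m → ∀ x, ρ (σ n * σ m) x = (ρ (σ m * σ n) x)⁻¹)
    (hsep : ∀ m m', m ≠ m' → ∃ n, ¬ (c n m ↔ c n m')) :
    ∃ k, Nat.card X = p ^ k ∧ Fintype.card ι ≤ k * k := by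
  classical
  let g : E → Module.End (ZMod p) (Additive X) := fun e =>
    AddMonoidHom.toZModLinearMap p (AddMonoidHom.mk'
      (fun x : Additive X => Additive.ofMul (ρ e x.toMul))
      fun x y => congrArg Additive.ofMul (map_mul (ρ e) x.toMul y.toMul))
  have hg : ∀ e (x : Additive X), (g e x).toMul = ρ e x.toMul := fun e x => rfl
  let f : E →* Module.End (ZMod p) (Additive X) :=
    { toFun := g
      map_one' := LinearMap.ext fun x => Additive.toMul.injective (by
        rw [hg, map_one]
        rfl)
      map_mul' := fun e e' => LinearMap.ext fun x => Additive.toMul.injective (by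
        rw [hg, map_mul, Module.End.mul_apply, hg, hg]
        rfl) }
  let s : ι → ι → ZMod p := fun n m => if c n m then 1 else -1
  have hs : ∀ n m, f (σ n) * f (σ m) = s n m • (f (σ m) * f (σ n)) := by
    intro n m
    by_cases h : c n m
    · simp only [s, if_pos h, one_smul, ← map_mul, hc n m h]
    · simp only [s, if_neg h, ← map_mul]
      refine LinearMap.ext fun x => ?_
      rw [LinearMap.smul_apply, neg_one_smul]
      exact congrArg Additive.ofMul (hnc n m h x.toMul)
  have hpm : (1 : ZMod p) ≠ -1 := ZMod.neg_one_ne_one.symm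
  have h := card_le_sq f σ s hs fun m m' hmm => by
    obtain ⟨n, hn⟩ := hsep m m' hmm
    refine ⟨n, fun he => hn ?_⟩
    by_cases h1 : c n m <;> by_cases h2 : c n m' <;> simp [s, h1, h2, hpm, hpm.symm] at he ⊢
  refine ⟨_, ?_, h⟩
  have h' := Module.natCard_eq_pow_finrank (K := ZMod p) (V := Additive X)
  rwa [Nat.card_zmod, Nat.card_congr Additive.toMul] at h'

/-- A group of exponent `p` acted on with many pairwise separated commutation patterns is large. -/
theorem exists_exponent {X E ι : Type*} [CommGroup X] [Finite X] [Nontrivial X] [Fintype ι]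
    [Group E] {p : ℕ} [Fact p.Prime] [Fact (2 < p)] (hX : ∀ x : X, x ^ p = 1)
    (ρ : E →* Monoid.End X) (σ : ι → E) (c : ι → ι → Prop)
    (hc : ∀ n m, c n m → σ n * σ m = σ m * σ n)
    (hnc : ∀ n m, ¬ c n m → ∀ x, ρ (σ n * σ m) x = (ρ (σ m * σ n) x)⁻¹)
    (hsep : ∀ m m', m ≠ m' → ∃ n, ¬ (c n m ↔ c n m')) :
    ∃ k, Nat.card X = p ^ k ∧ Fintype.card ι ≤ k * k :=
  @exists_exponent_of_module X E ι _ _ _ _ _ p _ _
    (AddCommGroup.zmodModule fun x => Additive.toMul.injective (hX x.toMul)) ρ σ c hc hnc hsep

end Cfsg.Agent.H69.M22Aut
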