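import Cfsg.Agent.H97.M22.Diag
import Cfsg.Agent.H97.M22.AutFour

/-!
An involutory additive map of the natural module commuting with `SU 4` is the identity.
-/

set_option autoImplicit false
set_option linter.unusedSectionVars false

namespace Cfsg.Agent.H69.M22Aut

open Matrix Cfsg
open Cfsg.Agent.H97.M22 Cfsg.Agent.H17.UPoints

variable {F : Type} [Field F] [Fintype F] (hF : Fintype.card F = 4)
include hF

theorem eq_id_of_commute (T : (Fin 4 → F) → (Fin 4 → F))
    (hadd : ∀ m n, T (m + n) = T m + T n)
    (heq : ∀ (h : ↥(Cfsg.SU 4 F 2)) m, T (act h m) = act h (T m))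
    (hinv : ∀ m, T (T m) = m) (m : Fin 4 → F) : T m = m := by
  classical
  obtain ⟨l, hl0, hl1, -⟩ := exists_aut_ne hF
  have hl3 : l * l * l = 1 := cube hF hl0
  obtain ⟨c, hc⟩ : ∃ c, c = T (Pi.single 0 1) 0 := ⟨_, rfl⟩
  -- the other coordinates of the image vanish
  have hzero : T (Pi.single 0 1) = Pi.single 0 c := by
    funext j
    rcases eq_or_ne j 0 with rfl | hj
    · rw [Pi.single_eq_same, hc]
    · rw [Pi.single_eq_of_ne hj]
      obtain ⟨k, hk0, hkj⟩ : ∃ k : Fin 4, k ≠ 0 ∧ k ≠ j := by
        rcases eq_or_ne j 1 with rfl | h1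
        · exact ⟨2, by decide, by decide⟩
        · exact ⟨1, by decide, h1.symm⟩
      obtain ⟨h, hh⟩ := exists_diag hF
        (fun t => if t = j then l else if t = k then l ^ 2 else 1)
        (fun t => by split_ifs <;> simp [hl0]) (by
          fin_cases j <;> fin_cases k <;> simp_all [Fin.prod_univ_four] <;>
            linear_combination hl3)
      have h0 : act h (Pi.single 0 1) = Pi.single 0 1 := by
        rw [hh, if_neg hj.symm, if_neg hk0.symm, one_mul]
      have h1 := congrFun (heq h (Pi.single 0 1)) j
      rw [h0] at h1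
      have h2 : act h (T (Pi.single 0 1)) j = l * T (Pi.single 0 1) j := by
        conv_lhs => rw [← Finset.univ_sum_single (T (Pi.single 0 1))]
        rw [Fin.sum_univ_four, act_add, act_add, act_add, hh, hh, hh, hh]
        fin_cases j <;> simp_all [Pi.single_apply]
      rw [h2] at h1
      by_contra hne
      exact hl1 (mul_right_cancel₀ hne (by rw [one_mul, ← h1]))
  -- the map multiplies by that entry
  have hsingle1 : ∀ i, T (Pi.single i 1) = Pi.single i c := fun i => by
    obtain ⟨h, hh⟩ := exists_move_single hF i
    have h1 := heq h (Pi.single i 1)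
    rw [hh, hzero, ← hh] at h1
    exact (Function.LeftInverse.injective (act_inv_act h) h1).symm
  have hsingle : ∀ i x, T (Pi.single i x) = Pi.single i (x * c) := fun i x => by
    rcases eq_or_ne x 0 with rfl | hx
    · rw [zero_mul, Pi.single_zero]
      have := hadd 0 0
      rwa [add_zero, left_eq_add] at this
    · obtain ⟨h, hh⟩ := exists_diag hF
        (fun t => if t = i then x else if t = i + 1 then x ^ 2 else 1)
        (fun t => by split_ifs <;> simp [hx]) (by
          fin_cases i <;> simp [Fin.prod_univ_four] <;> linear_combination cube hF hx)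
      have h1 := heq h (Pi.single i 1)
      rw [hh, if_pos rfl, mul_one, hsingle1, hh, if_pos rfl] at h1
      exact h1
  have hc2 : c * c = 1 := by
    have h := hinv (Pi.single 0 1)
    rw [hsingle, one_mul, hsingle] at h
    have := congrFun h 0
    simpa using this
  have hc1 : c = 1 := by
    have hc0 : c ≠ 0 := left_ne_zero_of_mul_eq_one hc2
    calc c = c * c * c := by rw [hc2, one_mul]
      _ = 1 := cube hF hc0
  have hm : m = Pi.single 0 (m 0) + Pi.single 1 (m 1) + Pi.single 2 (m 2) + Pi.single 3 (m 3) := by
    rw [← Fin.sum_univ_four (fun i => Pi.single i (m i)), Finset.univ_sum_single]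
  rw [hm]
  simp only [hadd, hsingle, hc1, mul_one]

end Cfsg.Agent.H69.M22Aut
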