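import Cfsg.Agent.H97.M22.AutFour
import Cfsg.Agent.H97.M22.Diag

/-!
An automorphism of `PSU 6` fixing a point and inducing the identity on the `SU 4` of the point has
trivial field part.
-/

set_option autoImplicit false
set_option linter.unusedSectionVars false

namespace Cfsg.Agent.H69.M22Aut

open Matrix Cfsg
open Cfsg.Agent.H97.M22 Cfsg.Agent.H17.UPoints
open Cfsg.Agent.H23.AutPSU (semiHom semiMat coe_semiHom)

variable {F : Type} [Field F] [Fintype F] (hF : Fintype.card F = 4)
include hF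

omit [Fintype F] hF in
/-- The entries of a matrix of `SU`. -/
theorem act_single {n : ℕ} (y : ↥(Cfsg.SU n F 2)) (i j : Fin n) :
    act y (Pi.single j 1) i = (y.1 : Matrix (Fin n) (Fin n) F) i j := by
  show ((y.1 : Matrix (Fin n) (Fin n) F) *ᵥ Pi.single j 1) i = _
  rw [mulVec_single_one]
  rfl

omit [Fintype F] hF in
theorem natAdd_ne (i : Fin 4) :
    (Fin.natAdd 2 i : Fin 6) ≠ 0 ∧ (Fin.natAdd 2 i : Fin 6) ≠ 1 := by
  fin_cases i <;> decide

omit [Fintype F] hF in
theorem vv_eq : (vv : Fin 6 → F) = Pi.single 0 1 + Pi.single 1 1 := by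
  conv_rhs => rw [← pt_eta (Pi.single 0 1 + Pi.single 1 1 : Fin 6 → F)]
  rw [vv]
  congr 1
  · simp
  · simp
  · funext i
    simp [tl, natAdd_ne]

omit [Fintype F] hF in
theorem pt_single (j : Fin 4) :
    pt (0 : F) 0 (Pi.single j 1) = Pi.single (Fin.natAdd 2 j : Fin 6) 1 := by
  conv_rhs => rw [← pt_eta (Pi.single (Fin.natAdd 2 j : Fin 6) 1 : Fin 6 → F)]
  congr 1
  · simp [(natAdd_ne j).1.symm]
  · simp [(natAdd_ne j).2.symm]
  · funext i
    simp [tl, Pi.single_apply, (Fin.natAdd_injective 4 2).eq_iff]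

/-- The entries of the block of an element of the point stabiliser. -/
theorem blockHom_apply (y : ↥(pointStab F)) (i j : Fin 4) :
    blockHom hF y i j =
      (y.1.1 : Matrix (Fin 6) (Fin 6) F) (Fin.natAdd 2 i) (Fin.natAdd 2 j) := by
  have h : (blockHom hF y *ᵥ Pi.single j 1) i = blockHom hF y i j := by
    rw [mulVec_single_one]; rfl
  rw [← h, blockHom_mulVec]
  show act y.1 (pt 0 0 (Pi.single j 1)) (Fin.natAdd 2 i) = _
  rw [pt_single, act_single]

/-- An element of the point stabiliser has the trace of its block. -/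
theorem trace_stab (y : ↥(pointStab F)) :
    (y.1.1 : Matrix (Fin 6) (Fin 6) F).trace = (blockHom hF y).trace := by
  set M := (y.1.1 : Matrix (Fin 6) (Fin 6) F) with hM
  obtain ⟨c, hc0, hc⟩ := y.2
  have hcol : ∀ i : Fin 6, M i 0 + M i 1 = c * (vv : Fin 6 → F) i := fun i => by
    have h := congrFun hc i
    rw [show (act y.1 vv) i = (act y.1 (Pi.single 0 1 + Pi.single 1 1)) i by rw [← vv_eq],
      act_add, Pi.add_apply, act_single, act_single, Pi.smul_apply, smul_eq_mul] at h
    exact h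
  have h0 : M 0 0 + M 0 1 = c := by simpa [vv, pt_zero] using hcol 0
  have h1 : M 1 0 + M 1 1 = c := by simpa [vv, pt_one] using hcol 1
  have h2 : c ^ 2 * (M 0 0 + M 1 0) = 1 := by
    have h := herm_act y.1 (Pi.single 0 1) (vv : Fin 6 → F)
    rw [hc, herm_smul_right hF, herm_vv_right hF, herm_vv_right hF, act_single, act_single] at h
    simpa using h
  have h3 : M 0 0 + M 1 0 = c := by
    linear_combination c * h2 - (M 0 0 + M 1 0) * cube hF hc0
  have hsum : M 0 0 + M 1 1 = 0 := by
    linear_combination h1 - h3 + add_self hF (M 0 0)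
  have hsplit : M.trace = M 0 0 + M 1 1 + ∑ i : Fin 4, M (Fin.natAdd 2 i) (Fin.natAdd 2 i) := by
    rw [Matrix.trace]
    refine (Fin.sum_univ_add (a := 2) (b := 4) _).trans ?_
    rw [Fin.sum_univ_two]
    rfl
  rw [hsplit, hsum, zero_add, Matrix.trace]
  simp only [Matrix.diag_apply, blockHom_apply hF, hM]

theorem blockHom_blk (h : ↥(Cfsg.SU 4 F 2)) :
    blockHom hF ⟨blk h, blk_mem hF h⟩ =
      ((h : Matrix.SpecialLinearGroup (Fin 4) F) : Matrix (Fin 4) (Fin 4) F) :=
  Matrix.ext_of_mulVec_single fun i => by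
    rw [blockHom_mulVec]
    show tl (act (blk h) (pt 0 0 _)) = _
    rw [blk_act hF, tl_pt]

/-- The trace criterion for the field part. -/
theorem sigma_eq_one (σ : F ≃+* F)
    (h : ∀ k : ↥(Cfsg.SU 4 F 2), σ (k.1 : Matrix (Fin 4) (Fin 4) F).trace =
      (k.1 : Matrix (Fin 4) (Fin 4) F).trace) : σ = 1 := by
  obtain ⟨l, hl0, hl1, hall⟩ := exists_aut_ne hF
  obtain ⟨k, hk⟩ := exists_diag hF (fun t => if t = 3 then 1 else l)
    (fun t => by split_ifs <;> simp [hl0]) (by
      simp [Fin.prod_univ_four]; exact cube hF hl0)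
  have htr : (k.1 : Matrix (Fin 4) (Fin 4) F).trace = l + 1 := by
    have he : ∀ t, (k.1 : Matrix (Fin 4) (Fin 4) F) t t = if t = 3 then 1 else l := fun t => by
      rw [← act_single k t t, hk]
      simp
    simp only [Matrix.trace, Matrix.diag_apply, he, Fin.sum_univ_four]
    simp only [show (0 : Fin 4) ≠ 3 by decide, show (1 : Fin 4) ≠ 3 by decide,
      show (2 : Fin 4) ≠ 3 by decide, if_false, if_true]
    linear_combination add_self hF l
  have hl : σ l = l := by
    have := h k
    rw [htr, map_add, map_one] at this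
    exact add_right_cancel this
  refine RingEquiv.ext fun x => ?_
  rcases hall x with rfl | rfl | rfl | rfl
  · exact map_zero σ
  · exact map_one σ
  · exact hl
  · rw [map_pow, hl]; rfl

theorem trace_semiHom (g : ↥(Cfsg.GU 6 F 2)) (σ : F ≃+* F) (s : ↥(Cfsg.SU 6 F 2)) :
    ((semiHom g σ s).1 : Matrix (Fin 6) (Fin 6) F).trace =
      σ (s.1 : Matrix (Fin 6) (Fin 6) F).trace := by
  rw [coe_semiHom, semiMat, Matrix.trace_units_conj]
  simp [Matrix.trace, map_sum]

/-- A semilinear automorphism inducing the identity on the block has trivial field part. -/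
theorem sigma_of_induced (g : ↥(Cfsg.GU 6 F 2)) (σ : F ≃+* F)
    (hst : ∀ h : ↥(Cfsg.SU 4 F 2), ∃ hy : semiHom g σ (blk h) ∈ pointStab F,
      piFour hF ⟨semiHom g σ (blk h), hy⟩ = h) : σ = 1 := by
  haveI := simple_SU_four hF
  choose hy hpi using hst
  let f : ↥(Cfsg.SU 4 F 2) →* ↥(pointStab F) := ((semiHom g σ).comp blk).codRestrict _ hy
  let dt : ↥(Cfsg.SU 4 F 2) →* Fˣ :=
    (Matrix.detMonoidHom.comp ((blockHom hF).comp f)).toHomUnits
  have hdt : ∀ h, dt h = 1 := by
    rcases (MonoidHom.normal_ker dt).eq_bot_or_eq_top with e | e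
    · exfalso
      have hinj := (MonoidHom.ker_eq_bot_iff dt).1 e
      have hc : Subgroup.center ↥(Cfsg.SU 4 F 2) = ⊤ := eq_top_iff.2 fun x _ =>
        Subgroup.mem_center_iff.2 fun y => hinj (by rw [map_mul, map_mul, mul_comm])
      rw [center_SU_four hF] at hc
      have hcard := card_SU_four hF
      rw [← Subgroup.card_top, ← hc, Subgroup.card_bot] at hcard
      omega
    · exact fun h => MonoidHom.mem_ker.1 (e ▸ Subgroup.mem_top h)
  refine sigma_eq_one hF σ fun k => ?_
  have hdet : (blockHom hF (f k)).det = 1 := congrArg Units.val (hdt k)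
  have hB : blockHom hF (f k) = (k.1 : Matrix (Fin 4) (Fin 4) F) := by
    refine Matrix.ext_of_mulVec_single fun i => ?_
    rw [blockHom_mulVec]
    have := piFour_act hF (f k) (Pi.single i 1)
    rw [hdet, inv_one, one_smul, show piFour hF (f k) = k from hpi k] at this
    rw [← this]
  have h1 := trace_stab hF (f k)
  rw [hB] at h1
  have h2 : ((f k).1.1 : Matrix (Fin 6) (Fin 6) F).trace =
      σ ((blk k).1 : Matrix (Fin 6) (Fin 6) F).trace := trace_semiHom hF g σ (blk k)
  rw [trace_stab hF ⟨blk k, blk_mem hF k⟩, blockHom_blk hF k, h1] at h2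
  exact h2.symm

end Cfsg.Agent.H69.M22Aut
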